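/-
Project HA (S2534), package D-ALL: if every prime dividing `|G|` lies in `π`, then the
maximal `π`-subgroups of `G` are conjugate (the only one is `⊤`).
-/
import Cfsg.Agent.Lib.Helper73.HA.Defs2

set_option autoImplicit false

namespace Cfsg.Agent.Lib.Helper69.HA

open Cfsg.Agent.Lib.Helper73.HA

universe u

theorem lemDAll : LemDAll.{u} := by
  intro G _ _ π hπ H K hH hK
  have htop : Cfsg.IsPiSubgroup π (⊤ : Subgroup G) := by
    intro p hp hdvd
    apply hπ p hp
    rwa [Subgroup.card_top] at hdvd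
  have hHtop : H = ⊤ := top_le_iff.1 (hH.2 htop le_top)
  have hKtop : K = ⊤ := top_le_iff.1 (hK.2 htop le_top)
  refine ⟨1, ?_⟩
  rw [hHtop, hKtop]
  ext a
  simp

end Cfsg.Agent.Lib.Helper69.HA
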