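/-
Project HA (S2534), package D-ONE: if at most one prime of `π` divides `|G|`, then the
maximal `π`-subgroups of `G` are conjugate (they are trivial, or the Sylow subgroups).
-/
import Cfsg.Agent.Lib.Helper73.HA.Defs2

set_option autoImplicit false

namespace Cfsg.Agent.Lib.Helper69.HA

open Cfsg.Agent.Lib.Helper73.HA

universe u

/-- A `π`-subgroup is a `p`-group when `p` is the only prime of `π` dividing `|G|`. -/
theorem isPGroup_of_piSubgroup {G : Type u} [Group G] [Finite G] {π : Set ℕ} {p : ℕ}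
    (hone : ∀ r : ℕ, r.Prime → r ∈ π → r ∣ Nat.card G → r = p)
    {H : Subgroup G} (hH : Cfsg.IsPiSubgroup π H) : IsPGroup p ↥H := by
  have hpos : Nat.card ↥H ≠ 0 := Nat.card_pos.ne'
  have hcard := Nat.eq_prime_pow_of_unique_prime_dvd hpos (p := p) (fun {d} hd hdvd =>
    hone d hd (hH d hd hdvd) (hdvd.trans (Subgroup.card_subgroup_dvd_card H)))
  exact IsPGroup.of_card hcard

/-- A `p`-subgroup is a `π`-subgroup when `p ∈ π`. -/
theorem piSubgroup_of_isPGroup {G : Type u} [Group G] [Finite G] {π : Set ℕ} {p : ℕ}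
    [hp : Fact p.Prime] (hpπ : p ∈ π) {Q : Subgroup G} (hQ : IsPGroup p ↥Q) :
    Cfsg.IsPiSubgroup π Q := by
  intro r hr hdvd
  obtain ⟨n, hn⟩ := IsPGroup.iff_card.1 hQ
  rw [hn] at hdvd
  have : r = p := (Nat.prime_dvd_prime_iff_eq hr hp.out).1 (hr.dvd_of_dvd_pow hdvd)
  rw [this]; exact hpπ

theorem lemDOne : LemDOne.{u} := by
  intro G _ _ π hπ H K hH hK
  by_cases hex : ∃ p : ℕ, p.Prime ∧ p ∈ π ∧ p ∣ Nat.card G
  · obtain ⟨p, hp, hpπ, hpG⟩ := hex
    have : Fact p.Prime := ⟨hp⟩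
    have hone : ∀ r : ℕ, r.Prime → r ∈ π → r ∣ Nat.card G → r = p :=
      fun r hr hrπ hrG => hπ r p hr hp hrπ hpπ hrG hpG
    have hsyl : ∀ L : Subgroup G, Maximal (Cfsg.IsPiSubgroup π) L →
        ∃ P : Sylow p G, (P : Subgroup G) = L := by
      intro L hL
      refine ⟨⟨L, isPGroup_of_piSubgroup hone hL.1, ?_⟩, rfl⟩
      intro Q hQ hLQ
      exact le_antisymm (hL.2 (piSubgroup_of_isPGroup hpπ hQ) hLQ) hLQ
    obtain ⟨P, rfl⟩ := hsyl H hH
    obtain ⟨P', rfl⟩ := hsyl K hK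
    obtain ⟨g, hg⟩ := MulAction.exists_smul_eq G P P'
    refine ⟨g, ?_⟩
    rw [← hg]
    rfl
  · have hbot : ∀ L : Subgroup G, Cfsg.IsPiSubgroup π L → L = ⊥ := by
      intro L hL
      apply Subgroup.eq_bot_of_card_eq
      by_contra hne
      obtain ⟨r, hr, hdvd⟩ := Nat.exists_prime_and_dvd hne
      exact hex ⟨r, hr, hL r hr hdvd, hdvd.trans (Subgroup.card_subgroup_dvd_card L)⟩
    refine ⟨1, ?_⟩
    rw [hbot H hH.1, hbot K hK.1]
    ext a
    simp

end Cfsg.Agent.Lib.Helper69.HA
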